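import Mathlib
import Cfsg.Agent.H914.Gs.SpBase
import Cfsg.Agent.ClassicalGeometry.SympGamma
import Cfsg.Agent.H989.Gs.SLC
import Cfsg.Agent.H989.Gs.Semi

/-!
# S4327, symplectic groups: semilinear automorphisms (helper989)

`semilinear` : eight conjugates generate.
-/

set_option autoImplicit false
set_option maxHeartbeats 400000
set_option linter.unusedSimpArgs false
set_option linter.unusedVariables false

namespace Cfsg.Agent.H989.Gs.Sp

open Cfsg Cfsg.Agent.H915.Gs
open Cfsg.Agent.ClassicalGeometry.SympBasic Cfsg.Agent.ClassicalGeometry.SympSiegel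
  Cfsg.Agent.ClassicalGeometry.SympAutSemi
open Cfsg.Agent.H914.Gs (T_le T_univ)
open Cfsg.Agent.H989.Gs.SLC

variable {F : Type*} [Field F] {m : ℕ}

local notation "V" => (Fin m ⊕ Fin m → F)
local notation "G" => Matrix.symplecticGroup (Fin m) F
local notation "B" => sympForm m F

/-! ### The elements `Y u w` -/

theorem Bswap {u v : V} (h : B u v = 0) : B v u = 0 := form_eq_zero_comm.1 h

/-- `v ↦ v + B(w,v) u + B(u,v) w` if `B(u,w) = 0`, `1` otherwise -/
noncomputable def Y (u w : V) : G := siegel u w (0 : F)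

theorem Y_ap {u w : V} (h : B u w = 0) (v : V) : Y u w • v = v + B w v • u + B u v • w := by
  unfold Y
  rw [siegel_smul h, zero_smul, add_zero]

theorem Y_of_ne {u w : V} (h : B u w ≠ 0) : Y u w = 1 := by
  unfold Y siegel
  rw [dif_neg h]

theorem Y_fix {u w v : V} (h1 : B u v = 0) (h2 : B w v = 0) : Y u w • v = v := by
  by_cases h : B u w = 0
  · rw [Y_ap h, h1, h2, zero_smul, zero_smul, add_zero, add_zero]
  · rw [Y_of_ne h, one_smul]

theorem Y_swap (u w : V) : Y u w = Y w u := by
  by_cases h : B u w = 0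
  · have h' := Bswap h
    apply ext_smul
    intro v
    rw [Y_ap h, Y_ap h']
    abel
  · rw [Y_of_ne h, Y_of_ne fun h' => h (Bswap h')]

theorem Y_conj (g : G) (u w : V) : g * Y u w * g⁻¹ = Y (g • u) (g • w) := by
  by_cases h : B u w = 0
  · exact conj_siegel g h 0
  · rw [Y_of_ne h, Y_of_ne (by rwa [form_smul]), mul_one, mul_inv_cancel]

theorem Y_comm {g : G} {u w : V} (hu : g • u = u) (hw : g • w = w) : g * Y u w = Y u w * g := by
  have := Y_conj g u w
  rw [hu, hw] at this
  rwa [mul_inv_eq_iff_eq_mul] at this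

theorem Y_add {u w w' : V} (h : B u w = 0) (h' : B u w' = 0) (hw : B w w' = 0) :
    Y u (w + w') = Y u w * Y u w' := by
  unfold Y
  rw [siegel_mul h h', hw, add_zero, add_zero]

theorem Y_zero (u : V) : Y u 0 = 1 := siegel_zero_zero u

theorem Y_zero_left (w : V) : Y 0 w = 1 := by rw [Y_swap, Y_zero]

theorem Y_smul {u w : V} (a : F) (h : B u w = 0) : Y (a • u) w = Y u (a • w) := by
  unfold Y
  rw [siegel_smul_vec h, mul_zero]

theorem Y_self (u : V) (t : F) : Y u (t • u) = transv u (-(2 * t)) := by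
  unfold Y
  rw [siegel_smul_self_eq, zero_add]

theorem Y_add_left {u u' w : V} (h : B u w = 0) (h' : B u' w = 0) (hu : B u u' = 0) :
    Y (u + u') w = Y u w * Y u' w := by
  rw [Y_swap, Y_add (Bswap h) (Bswap h') hu, Y_swap w u, Y_swap w u']

/-- transvections with centre `u + w` -/
theorem transv_add {u w : V} (h : B u w = 0) (c : F) :
    transv (u + w) c = transv u c * (transv w c * Y u ((-c) • w)) := by
  have h' : B u ((-c) • w) = 0 := by rw [sympForm_smul_right, h, mul_zero]
  have h1 := Bswap h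
  apply ext_smul
  intro x
  rw [mul_smul, mul_smul, Y_ap h', transv_smul, transv_smul, transv_smul]
  simp only [sympForm_add_left, sympForm_add_right, sympForm_smul_left, sympForm_smul_right,
    sympForm_self, h, h1]
  rw [sympForm_swap w x, sympForm_swap u x]
  module

/-! ### Hyperbolic systems -/

/-- `e i`, `f i` (`i < k`) hyperbolic pairs, `0` for `i ≥ k` -/
structure Sys (k : ℕ) (e f : ℕ → Fin m ⊕ Fin m → F) : Prop where
  ee : ∀ i j, B (e i) (e j) = 0
  ff : ∀ i j, B (f i) (f j) = 0
  ef : ∀ i j, i ≠ j → B (e i) (f j) = 0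
  one : ∀ i, i < k → B (e i) (f i) = 1
  ze : ∀ i, k ≤ i → e i = 0
  zf : ∀ i, k ≤ i → f i = 0

variable {k : ℕ} {e f : ℕ → Fin m ⊕ Fin m → F}

theorem Sys.fe (h : Sys k e f) {i j : ℕ} (hij : i ≠ j) : B (f i) (e j) = 0 := Bswap (h.ef j i hij.symm)

theorem Sys.neg_one (h : Sys k e f) {i : ℕ} (hi : i < k) : B (f i) (e i) = -1 := by
  rw [sympForm_swap, h.one i hi]

theorem Sys.symm (h : Sys k e f) : Sys k f (fun i => -e i) where
  ee := h.ff
  ff i j := by rw [sympForm_neg_left, sympForm_neg_right, h.ee, neg_zero, neg_zero]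
  ef i j hij := by rw [sympForm_neg_right, h.fe hij, neg_zero]
  one i hi := by rw [sympForm_neg_right, h.neg_one hi, neg_neg]
  ze := h.zf
  zf i hi := by rw [h.ze i hi, neg_zero]

theorem Sys.pX (h : Sys k e f) {i j : ℕ} (hij : i ≠ j) (t : F) : B (e i) (t • f j) = 0 := by
  rw [sympForm_smul_right, h.ef i j hij, mul_zero]

/-- the root element `X i j t : e j ↦ e j - t e i`, `f i ↦ f i + t f j` -/
noncomputable def X (e f : ℕ → Fin m ⊕ Fin m → F) (i j : ℕ) (t : F) : G := Y (e i) (t • f j)

theorem X_ap (h : Sys k e f) {i j : ℕ} (hij : i ≠ j) (t : F) (v : V) :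
    X e f i j t • v = v + (t * B (f j) v) • e i + (B (e i) v * t) • f j := by
  unfold X
  rw [Y_ap (h.pX hij t), sympForm_smul_left, smul_smul]

theorem X_e (h : Sys k e f) {i j : ℕ} (hij : i ≠ j) (t : F) {l : ℕ} (hl : l ≠ j) :
    X e f i j t • e l = e l := by
  rw [X_ap h hij, h.ee, h.fe hl.symm]
  simp

theorem X_f (h : Sys k e f) {i j : ℕ} (hij : i ≠ j) (t : F) {l : ℕ} (hl : l ≠ i) :
    X e f i j t • f l = f l := by
  rw [X_ap h hij, h.ff, h.ef i l hl.symm]
  simp

theorem X_ej (h : Sys k e f) {i j : ℕ} (hij : i ≠ j) (hj : j < k) (t : F) :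
    X e f i j t • e j = e j - t • e i := by
  rw [X_ap h hij, h.ee, h.neg_one hj]
  module

theorem rts (h : Sys k e f) : Rts k (X e f) where
  add {i j} hij s t := by
    unfold X
    rw [add_smul]
    exact Y_add (h.pX hij s) (h.pX hij t) (by rw [sympForm_smul_left, sympForm_smul_right, h.ff]; simp)
  out i j t hij := by
    unfold X
    rcases hij with h1 | h1
    · rw [h.ze i h1, Y_zero_left]
    · rw [h.zf j h1, smul_zero, Y_zero]
  comm {i j a b} hij hab hib hja s t := by
    change X e f i j s * Y (e a) (t • f b) = Y (e a) (t • f b) * X e f i j s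
    apply Y_comm
    · exact X_e h hij s hja.symm
    · rw [smul_smul', X_f h hij s hib.symm]
  conj {i j l} hij hjl hil hj s t := by
    have h1 : X e f i j s * X e f j l t * (X e f i j s)⁻¹ = Y ((-s) • e i + e j) (t • f l) := by
      change X e f i j s * Y (e j) (t • f l) * (X e f i j s)⁻¹ = _
      rw [Y_conj, X_ej h hij hj, smul_smul', X_f h hij s hil.symm]
      congr 1
      module
    rw [h1, Y_add_left (by rw [sympForm_smul_left, h.pX hil, mul_zero]) (h.pX hjl t)
      (by rw [sympForm_smul_left, h.ee, mul_zero]), Y_smul _ (h.pX hil t), smul_smul, neg_mul]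
    rfl

theorem X_symm (h : Sys k e f) {i j : ℕ} (hij : i ≠ j) (t : F) :
    X f (fun i => -e i) i j t = X e f j i (-t) := by
  unfold X
  have h1 : (t • -e j : V) = (-t) • e j := by rw [smul_neg, neg_smul]
  rw [h1, Y_swap, Y_smul _ (h.ef j i hij.symm)]

/-! ### Generation -/

theorem closure_sq [Finite F] : Subring.closure {x : F | ∃ y, x = y ^ 2} = ⊤ := by
  rw [eq_top_iff]
  intro x _
  have hsq : ∀ y : F, y ^ 2 ∈ Subring.closure {x : F | ∃ y, x = y ^ 2} := fun y =>
    Subring.subset_closure ⟨y, rfl⟩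
  by_cases h2 : (2 : F) = 0
  · have hc : CharP F 2 := CharTwo.of_one_ne_zero_of_two_eq_zero one_ne_zero h2
    cases nonempty_fintype F
    obtain ⟨y, hy⟩ := FiniteField.isSquare_of_char_two (ringChar.eq F 2) x
    rw [hy, ← pow_two]
    exact hsq y
  · have h1 : x = ((x + 1) ^ 2 - (x - 1) ^ 2) * (2⁻¹) ^ 2 := by
      field_simp
      ring
    rw [h1]
    exact mul_mem (sub_mem (hsq _) (hsq _)) (hsq _)

variable {J : Subgroup (Matrix.symplecticGroup (Fin m) F)}

/-- the additive group of the `c` with `transv v c ∈ J` -/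
def AT (v : V) (J : Subgroup (Matrix.symplecticGroup (Fin m) F)) : AddSubgroup F where
  carrier := {c | transv v c ∈ J}
  add_mem' := by
    intro s t hs ht
    change transv v (s + t) ∈ J
    rw [← transv_mul]
    exact mul_mem hs ht
  zero_mem' := by
    change transv v (0 : F) ∈ J
    rw [transv_zero]
    exact one_mem J
  neg_mem' := by
    intro t ht
    change transv v (-t) ∈ J
    rw [← transv_inv]
    exact inv_mem ht

theorem transv_move {g : G} (hg : g ∈ J) {v w : V} (h : g • v = w) {c : F} (hv : transv v c ∈ J) :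
    transv w c ∈ J := by
  rw [← h, ← conj_transv]
  exact mul_mem (mul_mem hg hv) (inv_mem hg)

/-- one side -/
theorem side [Finite F] (h : Sys k e f) (hk : 2 ≤ k) (hX : ∀ i j, i ≠ j → ∀ t, X e f i j t ∈ J) {κ : F}
    (hκ : κ ≠ 0) (hl : transv (e 0) κ ∈ J) :
    ∀ a ∈ Submodule.span F (Set.range e), ∀ c, transv a c ∈ J := by
  have h01 : (0 : ℕ) ≠ 1 := zero_ne_one
  have h0 : ∀ c, transv (e 0) c ∈ J := by
    intro c
    refine eq_univ_of_closed (A := AT (e 0) J) closure_sq ?_ hκ hl c
    rintro _ ⟨a, rfl⟩ t ht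
    change transv (e 0) (t * a ^ 2) ∈ J
    rw [mul_comm, ← transv_smul_vec]
    by_cases ha : a = 0
    · subst ha
      rw [transv_smul_vec, zero_pow two_ne_zero, zero_mul, transv_zero]
      exact one_mem J
    · refine transv_move (g := X e f 1 0 a⁻¹ * (X e f 0 1 (1 - a) * X e f 1 0 (-1)))
        (mul_mem (hX _ _ h01.symm _) (mul_mem (hX _ _ h01 _) (hX _ _ h01.symm _))) ?_ ht
      rw [mul_smul, mul_smul, X_ej h h01.symm (by omega), smul_sub', smul_smul', X_e h h01 _ h01,
        X_ej h h01 (by omega)]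
      have h1 : (e 0 - (-1 : F) • (e 1 - (1 - a) • e 0) : V) = a • e 0 + e 1 := by module
      rw [h1, smul_add', smul_smul', X_ej h h01.symm (by omega), X_e h h01.symm _ h01.symm, smul_sub, smul_smul,
        mul_inv_cancel₀ ha]
      module
  have hi : ∀ i, ∀ c, transv (e i) c ∈ J := by
    intro i c
    by_cases hi0 : i = 0
    · subst hi0
      exact h0 c
    · by_cases him : i < k
      · refine transv_move (g := X e f 0 i 1 * X e f i 0 (-1))
          (mul_mem (hX _ _ (Ne.symm hi0) _) (hX _ _ hi0 _)) ?_ (h0 c)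
        rw [mul_smul, X_ej h hi0 (by omega), smul_sub', smul_smul', X_e h (Ne.symm hi0) _ (Ne.symm hi0),
          X_ej h (Ne.symm hi0) him]
        module
      · rw [h.ze i (by omega)]
        have : transv (0 : V) c = 1 := by
          apply ext_smul
          intro v
          rw [transv_smul, smul_zero, add_zero, one_smul]
        rw [this]
        exact one_mem J
  have hij : ∀ i j, ∀ t : F, Y (e i) (t • e j) ∈ J := by
    intro i j t
    by_cases hij : i = j
    · subst hij
      rw [Y_self]
      exact hi i _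
    · by_cases him : i < k
      · have h1 : transv (e i + t • e j) (-1) ∈ J := by
          refine transv_move (g := X e f j i (-t)) (hX _ _ (Ne.symm hij) _) ?_ (hi i (-1))
          rw [X_ej h (Ne.symm hij) him]
          module
        have h2 : transv (t • e j) (-1) ∈ J := by
          rw [transv_smul_vec]
          exact hi j _
        rw [transv_add (by rw [sympForm_smul_right, h.ee, mul_zero]), neg_neg, one_smul] at h1
        have h3 := mul_mem (inv_mem h2) (mul_mem (inv_mem (hi i (-1))) h1)
        rwa [inv_mul_cancel_left, inv_mul_cancel_left] at h3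
      · rw [h.ze i (by omega), Y_zero_left]
        exact one_mem J
  have hiso : ∀ a ∈ Submodule.span F (Set.range e), ∀ b ∈ Submodule.span F (Set.range e), B a b = 0 := by
    intro a ha b hb
    induction ha using Submodule.span_induction with
    | mem a ha =>
      obtain ⟨i, rfl⟩ := ha
      induction hb using Submodule.span_induction with
      | mem b hb => obtain ⟨j, rfl⟩ := hb; exact h.ee i j
      | zero => exact sympForm_zero_right _
      | add x y _ _ hx hy => rw [sympForm_add_right, hx, hy, add_zero]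
      | smul c x _ hx => rw [sympForm_smul_right, hx, mul_zero]
    | zero => exact sympForm_zero_left _
    | add x y _ _ hx hy => rw [sympForm_add_left, hx, hy, add_zero]
    | smul c x _ hx => rw [sympForm_smul_left, hx, mul_zero]
  have heb : ∀ i, ∀ b ∈ Submodule.span F (Set.range e), ∀ t : F, Y (e i) (t • b) ∈ J := by
    intro i b hb
    have hei : e i ∈ Submodule.span F (Set.range e) := Submodule.subset_span ⟨i, rfl⟩
    induction hb using Submodule.span_induction with
    | mem b hb => obtain ⟨j, rfl⟩ := hb; exact hij i j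
    | zero => intro t; rw [smul_zero, Y_zero]; exact one_mem J
    | add x y hx' hy' hx hy =>
      intro t
      rw [smul_add, Y_add (hiso _ hei _ (Submodule.smul_mem _ _ hx')) (hiso _ hei _ (Submodule.smul_mem _ _ hy'))
        (hiso _ (Submodule.smul_mem _ _ hx') _ (Submodule.smul_mem _ _ hy'))]
      exact mul_mem (hx t) (hy t)
    | smul c x _ hx => intro t; rw [smul_smul]; exact hx _
  have hab : ∀ b ∈ Submodule.span F (Set.range e), ∀ a ∈ Submodule.span F (Set.range e), ∀ t : F,
      Y b (t • a) ∈ J := by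
    intro b hb a ha
    induction ha using Submodule.span_induction with
    | mem a ha =>
      obtain ⟨i, rfl⟩ := ha
      intro t
      have hei : e i ∈ Submodule.span F (Set.range e) := Submodule.subset_span ⟨i, rfl⟩
      rw [Y_swap, Y_smul _ (hiso _ hei _ hb)]
      exact heb i b hb t
    | zero => intro t; rw [smul_zero, Y_zero]; exact one_mem J
    | add x y hx' hy' hx hy =>
      intro t
      rw [smul_add, Y_add (hiso _ hb _ (Submodule.smul_mem _ _ hx')) (hiso _ hb _ (Submodule.smul_mem _ _ hy'))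
        (hiso _ (Submodule.smul_mem _ _ hx') _ (Submodule.smul_mem _ _ hy'))]
      exact mul_mem (hx t) (hy t)
    | smul c x _ hx => intro t; rw [smul_smul]; exact hx _
  intro a ha
  induction ha using Submodule.span_induction with
  | mem a ha => obtain ⟨i, rfl⟩ := ha; exact hi i
  | zero =>
    intro c
    have : transv (0 : V) c = 1 := by
      apply ext_smul
      intro v
      rw [transv_smul, smul_zero, add_zero, one_smul]
    rw [this]
    exact one_mem J
  | add x y hx' hy' hx hy =>
    intro c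
    rw [transv_add (hiso _ hx' _ hy')]
    exact mul_mem (hx c) (mul_mem (hy c) (hab x hx' y hy' _))
  | smul t x _ hx => intro c; rw [transv_smul_vec]; exact hx _

/-- **generation from `SL_k` and two long root elements** -/
theorem eq_top [Finite F] (h : Sys k e f) (hk : 2 ≤ k)
    (hspan : Submodule.span F (Set.range e) ⊔ Submodule.span F (Set.range f) = ⊤)
    (hX : ∀ i j, i ≠ j → ∀ t, X e f i j t ∈ J) {κ κ' : F}
    (hκ : κ ≠ 0) (hl : transv (e 0) κ ∈ J) (hκ' : κ' ≠ 0) (hl' : transv (f 0) κ' ∈ J) : J = ⊤ := by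
  have hE := side h hk hX hκ hl
  have hE' := side h.symm hk (fun i j hij t => by rw [X_symm h hij]; exact hX j i hij.symm _) hκ' hl'
  have hff : ∀ a ∈ Submodule.span F (Set.range f), ∀ b ∈ Submodule.span F (Set.range f), B a b = 0 := by
    intro a ha b hb
    induction ha using Submodule.span_induction with
    | mem a ha =>
      obtain ⟨i, rfl⟩ := ha
      induction hb using Submodule.span_induction with
      | mem b hb => obtain ⟨j, rfl⟩ := hb; exact h.ff i j
      | zero => exact sympForm_zero_right _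
      | add x y _ _ hx hy => rw [sympForm_add_right, hx, hy, add_zero]
      | smul c x _ hx => rw [sympForm_smul_right, hx, mul_zero]
    | zero => exact sympForm_zero_left _
    | add x y _ _ hx hy => rw [sympForm_add_left, hx, hy, add_zero]
    | smul c x _ hx => rw [sympForm_smul_left, hx, mul_zero]
  have hee : ∀ a ∈ Submodule.span F (Set.range e), ∀ b ∈ Submodule.span F (Set.range e), B a b = 0 := by
    intro a ha b hb
    induction ha using Submodule.span_induction with
    | mem a ha =>
      obtain ⟨i, rfl⟩ := ha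
      induction hb using Submodule.span_induction with
      | mem b hb => obtain ⟨j, rfl⟩ := hb; exact h.ee i j
      | zero => exact sympForm_zero_right _
      | add x y _ _ hx hy => rw [sympForm_add_right, hx, hy, add_zero]
      | smul c x _ hx => rw [sympForm_smul_right, hx, mul_zero]
    | zero => exact sympForm_zero_left _
    | add x y _ _ hx hy => rw [sympForm_add_left, hx, hy, add_zero]
    | smul c x _ hx => rw [sympForm_smul_left, hx, mul_zero]
  have key : ∀ a ∈ Submodule.span F (Set.range e), ∀ b ∈ Submodule.span F (Set.range f), B a b ≠ 0 →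
      ∀ c, transv (a + b) c ∈ J := by
    intro a ha b hb hab c
    refine transv_move (hE' b hb (B a b)⁻¹) ?_ (hE a ha c)
    rw [transv_smul, inv_mul_cancel₀ hab, one_smul]
  rw [eq_top_iff, ← T_univ, T_le]
  intro v _ c
  have hv : v ∈ Submodule.span F (Set.range e) ⊔ Submodule.span F (Set.range f) := by rw [hspan]; trivial
  obtain ⟨a, ha, b, hb, rfl⟩ := Submodule.mem_sup.1 hv
  by_cases hab : B a b = 0
  · by_cases ha0 : a = 0
    · rw [ha0, zero_add]
      exact hE' b hb c
    · obtain ⟨b', hb', hab'⟩ : ∃ b' ∈ Submodule.span F (Set.range f), B a b' ≠ 0 := by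
        by_contra hcon
        push Not at hcon
        apply ha0
        apply eq_zero_of_forall_sympForm_right
        intro v
        have hv : v ∈ Submodule.span F (Set.range e) ⊔ Submodule.span F (Set.range f) := by rw [hspan]; trivial
        obtain ⟨x, hx, y, hy, rfl⟩ := Submodule.mem_sup.1 hv
        rw [sympForm_add_right, hee a ha x hx, hcon y hy, add_zero]
      refine transv_move (hE' (b - b') (sub_mem hb hb') (-(B a b')⁻¹)) ?_ (key a ha b' hb' hab' c)
      rw [transv_smul, sympForm_add_left, sympForm_sub_right, sympForm_sub_right, hab, hff b' hb' b hb,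
        hff b' hb' b' hb']
      have h1 : -(B a b')⁻¹ * (0 - B a b' + (0 - 0)) = 1 := by field_simp; ring
      rw [h1, one_smul]
      abel
  · exact key a ha b hb hab c

/-! ### The semisimilitude -/

open Cfsg.Agent.H989.Gs.Semi (exists_gen exists_kappa)

theorem conjHom_smul (g : semiSim m F) (A : G) (v : V) : conjHom m F g A • g.1 v = g.1 (A • v) := by
  have h1 := rho_conjHom g A
  have h2 : rho m F (conjHom m F g A) (g.1 v) = (g.1 * rho m F A * g.1⁻¹) (g.1 v) := by rw [h1]
  rw [rho_apply, Equiv.Perm.mul_apply, Equiv.Perm.mul_apply, perm_inv_apply_self] at h2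
  exact h2

theorem conjHom_Y {g : semiSim m F} {φ : F ≃+* F} {l : F} (hl : l ≠ 0) (hg : IsSemi g.1 φ l) {u w : V}
    (h : B u w = 0) : conjHom m F g (Y u w) = Y (g.1 u) (l⁻¹ • g.1 w) := by
  have h' : B (g.1 u) (l⁻¹ • g.1 w) = 0 := by rw [sympForm_smul_right, hg.2.2, h, map_zero, mul_zero, mul_zero]
  apply ext_smul
  intro v
  obtain ⟨v, rfl⟩ := g.1.surjective v
  rw [conjHom_smul, Y_ap h, Y_ap h', hg.1, hg.1, hg.2.1, hg.2.1, sympForm_smul_left, hg.2.2, hg.2.2, smul_smul]
  have h1 : l⁻¹ * (l * φ (B w v)) = φ (B w v) := by rw [inv_mul_cancel_left₀ hl]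
  have h2 : l * φ (B u v) * l⁻¹ = φ (B u v) := by rw [mul_comm, inv_mul_cancel_left₀ hl]
  rw [h1, h2]

/-- **eight conjugates** -/
theorem reach_of_sys [Finite F] {g : semiSim m F} {φ : F ≃+* F} {l : F} (hl : l ≠ 0) (hg : IsSemi g.1 φ l)
    (hφ : φ ≠ RingEquiv.refl F) (h : Sys k e f) (hk : 2 ≤ k)
    (hspan : Submodule.span F (Set.range e) ⊔ Submodule.span F (Set.range f) = ⊤)
    (he : ∀ i, g.1 (e i) = e i) (hf : ∀ i, g.1 (f i) = l • f i) :
    Reach₁ (conjHom m F g) 7 (⊤ : Subgroup (Matrix.symplecticGroup (Fin m) F)) := by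
  obtain ⟨s, hs0, hτ1, hτ, hτ1', hτ'⟩ := exists_gen hφ
  obtain ⟨y, hy⟩ := exists_kappa hφ
  have hσs : φ s ≠ 0 := by simpa using hs0
  -- long root elements
  have hlong : ∀ c : F, c ≠ 0 → ∃ y : F, y - c * φ y ≠ 0 := by
    intro c hc
    by_contra hcon
    push Not at hcon
    have h1 := hcon 1
    rw [map_one, mul_one, sub_eq_zero] at h1
    subst h1
    apply hφ
    ext x
    have h2 := hcon x
    rw [one_mul, sub_eq_zero] at h2
    exact h2.symm
  obtain ⟨y₁, hy₁⟩ := hlong l⁻¹ (inv_ne_zero hl)
  obtain ⟨y₂, hy₂⟩ := hlong l hl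
  -- the torus element
  let w : F → G := fun s => transv (e 0) s * (transv (f 0) s⁻¹ * transv (e 0) s)
  have w_e : ∀ s, s ≠ 0 → w s • e 0 = s⁻¹ • f 0 := by
    intro s hs
    change (transv (e 0) s * (transv (f 0) s⁻¹ * transv (e 0) s)) • e 0 = _
    rw [mul_smul, mul_smul, transv_smul, transv_smul, transv_smul]
    simp only [sympForm_add_left, sympForm_add_right, sympForm_smul_left, sympForm_smul_right,
      sympForm_self, h.one 0 (by omega), h.neg_one (i := 0) (by omega)]
    match_scalars <;> field_simp <;> ring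
  have w_f : ∀ s, s ≠ 0 → w s • f 0 = (-s) • e 0 := by
    intro s hs
    change (transv (e 0) s * (transv (f 0) s⁻¹ * transv (e 0) s)) • f 0 = _
    rw [mul_smul, mul_smul, transv_smul, transv_smul, transv_smul]
    simp only [sympForm_add_left, sympForm_add_right, sympForm_smul_left, sympForm_smul_right,
      sympForm_self, h.one 0 (by omega), h.neg_one (i := 0) (by omega)]
    match_scalars <;> field_simp <;> ring
  have w_o : ∀ s v, B v (e 0) = 0 → B v (f 0) = 0 → w s • v = v := by
    intro s v h1 h2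
    change (transv (e 0) s * (transv (f 0) s⁻¹ * transv (e 0) s)) • v = _
    have q1 : ∀ c : F, transv (e 0) c • v = v := fun c => by
      rw [transv_smul, h1, mul_zero, zero_smul, add_zero]
    have q2 : ∀ c : F, transv (f 0) c • v = v := fun c => by
      rw [transv_smul, h2, mul_zero, zero_smul, add_zero]
    rw [mul_smul, mul_smul, q1, q2, q1]
  let t : G := w s * w (-1)
  have t_e : t • e 0 = s • e 0 := by
    change (w s * w (-1)) • e 0 = _
    rw [mul_smul, w_e _ (neg_ne_zero.2 one_ne_zero), smul_smul', w_f s hs0, smul_smul]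
    congr 1
    field_simp
  have t_f : t • f 0 = s⁻¹ • f 0 := by
    change (w s * w (-1)) • f 0 = _
    rw [mul_smul, w_f _ (neg_ne_zero.2 one_ne_zero), smul_smul', w_e s hs0, neg_neg, one_smul]
  have t_ei : ∀ i, i ≠ 0 → t • e i = e i := by
    intro i hi
    change (w s * w (-1)) • e i = _
    rw [mul_smul, w_o _ _ (h.ee _ _) (h.ef _ _ hi), w_o _ _ (h.ee _ _) (h.ef _ _ hi)]
  have t_fi : ∀ i, i ≠ 0 → t • f i = f i := by
    intro i hi
    change (w s * w (-1)) • f i = _
    rw [mul_smul, w_o _ _ (h.fe hi) (h.ff _ _), w_o _ _ (h.fe hi) (h.ff _ _)]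
  let a := conjHom m F g
  have at_e : a t • e 0 = φ s • e 0 := by
    have h1 : a t • g.1 (e 0) = g.1 (t • e 0) := conjHom_smul g t (e 0)
    rwa [he, t_e, hg.2.1, he] at h1
  have at_f : a t • f 0 = (φ s)⁻¹ • f 0 := by
    have h1 : a t • g.1 (f 0) = g.1 (t • f 0) := conjHom_smul g t (f 0)
    rw [hf, t_f, hg.2.1, hf, smul_smul', map_inv₀, smul_comm (φ s)⁻¹ l] at h1
    exact smul_right_injective _ hl h1
  have at_ei : ∀ i, i ≠ 0 → a t • e i = e i := by
    intro i hi
    have h1 : a t • g.1 (e i) = g.1 (t • e i) := conjHom_smul g t (e i)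
    rwa [he, t_ei i hi, he] at h1
  have at_fi : ∀ i, i ≠ 0 → a t • f i = f i := by
    intro i hi
    have h1 : a t • g.1 (f i) = g.1 (t • f i) := conjHom_smul g t (f i)
    rw [hf, t_fi i hi, hf, smul_smul'] at h1
    exact smul_right_injective _ hl h1
  have hinv : ∀ {A : G} {v w : V}, A • v = w → A⁻¹ • w = v := by
    intro A v w hA
    rw [← hA, inv_smul_smul]
  set D := t * (a t)⁻¹ with hD
  have D_e : D • e 0 = (s * (φ s)⁻¹) • e 0 := by
    have h1 : (a t)⁻¹ • e 0 = (φ s)⁻¹ • e 0 := by
      apply hinv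
      rw [smul_smul', at_e, smul_smul, inv_mul_cancel₀ hσs, one_smul]
    rw [hD, mul_smul, h1, smul_smul', t_e, smul_smul, mul_comm]
  have D_f : D • f 0 = (s⁻¹ * φ s) • f 0 := by
    have h1 : (a t)⁻¹ • f 0 = φ s • f 0 := by
      apply hinv
      rw [smul_smul', at_f, smul_smul, mul_inv_cancel₀ hσs, one_smul]
    rw [hD, mul_smul, h1, smul_smul', t_f, smul_smul, mul_comm]
  have D_ei : ∀ i, i ≠ 0 → D • e i = e i := by
    intro i hi
    rw [hD, mul_smul, hinv (at_ei i hi), t_ei i hi]
  have D_fi : ∀ i, i ≠ 0 → D • f i = f i := by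
    intro i hi
    rw [hD, mul_smul, hinv (at_fi i hi), t_fi i hi]
  -- the automorphism on root elements
  have aX : ∀ i j, i ≠ j → ∀ t, a (X e f i j t) = X e f i j (φ t) := by
    intro i j hij t
    unfold X
    change conjHom m F g _ = _
    rw [conjHom_Y hl hg (h.pX hij t), he, hg.2.1, hf, smul_smul, smul_smul]
    congr 2
    rw [mul_comm _ l, mul_inv_cancel_left₀ hl]
  have aX' : ∀ i j, i ≠ j → ∀ t, a (op (X e f) i j t) = op (X e f) i j (φ t) := by
    intro i j hij t
    change a (X e f j i (-t)) = X e f j i (-φ t)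
    rw [aX j i hij.symm, map_neg]
  have hR := rts h
  let u : Fin 7 → G := ![t, T (X e f) k 0 y, T (X e f) k 1 y, T (op (X e f)) k 0 y,
    T (op (X e f)) k 1 y, transv (e 0) y₁, transv (f 0) y₂]
  set H := Subgroup.closure (Set.range fun i => u i * (a (u i))⁻¹) with hH
  have hmem : ∀ i, u i * (a (u i))⁻¹ ∈ H := fun i => Subgroup.subset_closure ⟨i, rfl⟩
  have hDH : D ∈ H := hmem 0
  have hT : ∀ j, T (X e f) k j y * (a (T (X e f) k j y))⁻¹ = T (X e f) k j (y - φ y) := by
    intro j
    have h1 : a (T (X e f) k j y) = T (X e f) k j (φ y) := T_map (a := a.toMonoidHom) aX k j y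
    rw [h1, T_inv hR, ← T_add hR, ← sub_eq_add_neg]
  have hT' : ∀ j, T (op (X e f)) k j y * (a (T (op (X e f)) k j y))⁻¹ = T (op (X e f)) k j (y - φ y) := by
    intro j
    have h1 : a (T (op (X e f)) k j y) = T (op (X e f)) k j (φ y) := T_map (a := a.toMonoidHom) aX' k j y
    rw [h1, T_inv hR.op, ← T_add hR.op, ← sub_eq_add_neg]
  have hT0 : T (X e f) k 0 (y - φ y) ∈ H := by
    rw [← hT 0]
    exact hmem 1
  have hT1 : T (X e f) k 1 (y - φ y) ∈ H := by
    rw [← hT 1]
    exact hmem 2
  have hT0' : T (op (X e f)) k 0 (y - φ y) ∈ H := by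
    rw [← hT' 0]
    exact hmem 3
  have hT1' : T (op (X e f)) k 1 (y - φ y) ∈ H := by
    rw [← hT' 1]
    exact hmem 4
  have hl1 : transv (e 0) (y₁ - l⁻¹ * φ y₁) ∈ H := by
    have h1 : transv (e 0) y₁ * (a (transv (e 0) y₁))⁻¹ ∈ H := hmem 5
    have h2 : a (transv (e 0) y₁) = transv (e 0) (φ y₁ * l⁻¹) := by
      rw [← he 0]
      change conjHom m F g _ = _
      rw [conjHom_transv g hl hg, he, he]
    rw [h2, transv_inv, transv_mul] at h1
    have h3 : y₁ - l⁻¹ * φ y₁ = y₁ + -(φ y₁ * l⁻¹) := by ring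
    rwa [h3]
  have hl2 : transv (f 0) (y₂ - l * φ y₂) ∈ H := by
    have h1 : transv (f 0) y₂ * (a (transv (f 0) y₂))⁻¹ ∈ H := hmem 6
    have h2 : a (transv (f 0) y₂) = transv (f 0) (l * φ y₂) := by
      change conjHom m F g _ = _
      rw [conjHom_transv g hl hg, hf, transv_smul_vec]
      congr 1
      field_simp
    rw [h2, transv_inv, transv_mul] at h1
    rwa [sub_eq_add_neg]
  have hP := all_P hR hk hDH hτ1' hτ1 hτ' hτ
    (fun i hi _ t => by
      change D * Y (e (i + 1)) (t • f i) * D⁻¹ = Y (e (i + 1)) (t • f i)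
      rw [Y_conj, D_ei _ (by omega), smul_smul', D_fi _ (by omega)])
    (fun t => by
      change D * Y (e 1) (t • f 0) * D⁻¹ = Y (e 1) ((t * (s⁻¹ * φ s)) • f 0)
      rw [Y_conj, D_ei _ (by omega), smul_smul', D_f, smul_smul])
    (fun i hi _ t => by
      change D * Y (e i) (t • f (i + 1)) * D⁻¹ = Y (e i) (t • f (i + 1))
      rw [Y_conj, D_ei _ (by omega), smul_smul', D_fi _ (by omega)])
    (fun t => by
      change D * Y (e 0) (t • f 1) * D⁻¹ = Y (e 0) ((t * (s * (φ s)⁻¹)) • f 1)
      rw [Y_conj, D_e, smul_smul', D_fi _ (by omega), Y_smul _ (h.pX zero_ne_one _), smul_smul, mul_comm])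
    hy (n := k) (by omega) hT0 hT1 hT0' hT1'
  have htop : H = ⊤ := by
    refine eq_top h hk hspan (fun i j hij t => ?_) hy₁ hl1 hy₂ hl2
    by_cases hi : i < k
    · by_cases hj : j < k
      · exact hP i j (by omega) (by omega) hij t
      · rw [hR.out i j t (Or.inr (by omega))]
        exact one_mem H
    · rw [hR.out i j t (Or.inl (by omega))]
      exact one_mem H
  rw [← htop]
  exact Reach₁.comm (conjHom m F g) u

/-! ### Frames -/

open Cfsg.Agent.H989.Gs.Desc (span_fixed exists_normalize sm sm_apply)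

/-- the space orthogonal to a system -/
def U (e f : ℕ → Fin m ⊕ Fin m → F) : Submodule F (Fin m ⊕ Fin m → F) where
  carrier := {v | ∀ i, B (e i) v = 0 ∧ B (f i) v = 0}
  add_mem' := by
    intro v w hv hw i
    rw [sympForm_add_right, sympForm_add_right, (hv i).1, (hw i).1, (hv i).2, (hw i).2, add_zero]
    exact ⟨rfl, rfl⟩
  zero_mem' := by
    intro i
    rw [sympForm_zero_right, sympForm_zero_right]
    exact ⟨rfl, rfl⟩
  smul_mem' := by
    intro a v hv i
    rw [sympForm_smul_right, sympForm_smul_right, (hv i).1, (hv i).2, mul_zero]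
    exact ⟨rfl, rfl⟩

theorem mem_U {v : V} : v ∈ U e f ↔ ∀ i, B (e i) v = 0 ∧ B (f i) v = 0 := Iff.rfl

/-- the projection -/
noncomputable def pr (e f : ℕ → Fin m ⊕ Fin m → F) (k : ℕ) (v : V) : V :=
  v - ∑ i ∈ Finset.range k, (B (e i) v • f i - B (f i) v • e i)

theorem B_sum (x : V) {ι : Type*} (s : Finset ι) (g : ι → Fin m ⊕ Fin m → F) :
    B x (∑ i ∈ s, g i) = ∑ i ∈ s, B x (g i) := by
  change sympBilin m F x (∑ i ∈ s, g i) = _
  rw [map_sum]
  rfl

theorem pr_mem (h : Sys k e f) (v : V) : pr e f k v ∈ U e f := by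
  intro i
  unfold pr
  rw [sympForm_sub_right, sympForm_sub_right, B_sum, B_sum]
  constructor
  · by_cases hi : i < k
    · rw [Finset.sum_eq_single_of_mem i (Finset.mem_range.2 hi)]
      · rw [sympForm_sub_right, sympForm_smul_right, sympForm_smul_right, h.ee, h.one i hi]
        ring
      · intro j _ hj
        rw [sympForm_sub_right, sympForm_smul_right, sympForm_smul_right, h.ee, h.ef i j hj.symm]
        ring
    · rw [h.ze i (by omega), sympForm_zero_left, Finset.sum_eq_zero, sub_zero]
      intro j _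
      rw [sympForm_zero_left]
  · by_cases hi : i < k
    · rw [Finset.sum_eq_single_of_mem i (Finset.mem_range.2 hi)]
      · rw [sympForm_sub_right, sympForm_smul_right, sympForm_smul_right, h.ff, h.neg_one hi]
        ring
      · intro j _ hj
        rw [sympForm_sub_right, sympForm_smul_right, sympForm_smul_right, h.ff, h.fe hj.symm]
        ring
    · rw [h.zf i (by omega), sympForm_zero_left, Finset.sum_eq_zero, sub_zero]
      intro j _
      rw [sympForm_zero_left]

theorem sum_mem' (e f : ℕ → Fin m ⊕ Fin m → F) (k : ℕ) (v : V) :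
    ∑ i ∈ Finset.range k, (B (e i) v • f i - B (f i) v • e i) ∈
      Submodule.span F (Set.range e) ⊔ Submodule.span F (Set.range f) :=
  sum_mem fun i _ => sub_mem
    (Submodule.mem_sup_right (Submodule.smul_mem _ _ (Submodule.subset_span ⟨i, rfl⟩)))
    (Submodule.mem_sup_left (Submodule.smul_mem _ _ (Submodule.subset_span ⟨i, rfl⟩)))

theorem nondeg_U (h : Sys k e f) {u : V} (hu : u ∈ U e f) (H : ∀ v ∈ U e f, B u v = 0) : u = 0 := by
  apply eq_zero_of_forall_sympForm_right
  intro v
  have h1 : v = ∑ i ∈ Finset.range k, (B (e i) v • f i - B (f i) v • e i) + pr e f k v := by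
    unfold pr
    abel
  rw [h1, sympForm_add_right, H _ (pr_mem h v), add_zero, B_sum]
  apply Finset.sum_eq_zero
  intro i _
  rw [sympForm_sub_right, sympForm_smul_right, sympForm_smul_right, Bswap (hu i).1, Bswap (hu i).2]
  ring

theorem finrank_U (h : Sys k e f) : Module.finrank F (U e f) + 2 * k = 2 * m := by
  let L : V →ₗ[F] (Fin k → F) × (Fin k → F) :=
    (LinearMap.pi fun i : Fin k => sympBilin m F (e i)).prod (LinearMap.pi fun i : Fin k => sympBilin m F (f i))
  have hL : ∀ v, L v = (fun i : Fin k => B (e i) v, fun i : Fin k => B (f i) v) := fun v => rfl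
  have hker : LinearMap.ker L = U e f := by
    ext v
    rw [LinearMap.mem_ker, hL, mem_U]
    constructor
    · intro hv i
      by_cases hi : i < k
      · have h1 := congrFun (congrArg Prod.fst hv) ⟨i, hi⟩
        have h2 := congrFun (congrArg Prod.snd hv) ⟨i, hi⟩
        exact ⟨h1, h2⟩
      · rw [h.ze i (by omega), h.zf i (by omega), sympForm_zero_left]
        exact ⟨rfl, rfl⟩
    · intro hv
      ext i
      · exact (hv i).1
      · exact (hv i).2
  have hrange : LinearMap.range L = ⊤ := by
    rw [eq_top_iff]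
    rintro ⟨a, b⟩ _
    refine ⟨∑ i : Fin k, (a i • f i - b i • e i), ?_⟩
    rw [hL]
    have hsum : ∀ x : V, B x (∑ i : Fin k, (a i • f i - b i • e i)) =
        ∑ i : Fin k, (a i * B x (f i) - b i * B x (e i)) := by
      intro x
      rw [B_sum]
      refine Finset.sum_congr rfl fun i _ => ?_
      rw [sympForm_sub_right, sympForm_smul_right, sympForm_smul_right]
    ext i
    · simp only
      rw [hsum, Finset.sum_eq_single i]
      · rw [h.ee, h.one i i.2]
        simp
      · intro j _ hj
        rw [h.ee, h.ef i j (fun h0 => hj (Fin.ext h0.symm))]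
        simp
      · intro h0
        exact absurd (Finset.mem_univ i) h0
    · simp only
      rw [hsum, Finset.sum_eq_single i]
      · rw [h.ff, h.neg_one i.2]
        simp
      · intro j _ hj
        rw [h.ff, h.fe (fun h0 => hj (Fin.ext h0.symm))]
        simp
      · intro h0
        exact absurd (Finset.mem_univ i) h0
  have h1 := LinearMap.finrank_range_add_finrank_ker L
  rw [hker, hrange, finrank_top, Module.finrank_prod, Module.finrank_fin_fun, Module.finrank_fintype_fun_eq_card,
    Fintype.card_sum, Fintype.card_fin] at h1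
  omega

theorem exists_sys {M : (Fin m ⊕ Fin m → F) ≃+ (Fin m ⊕ Fin m → F)} {σ : RingAut F} {l : F} (hl : l ≠ 0)
    (hM : ∀ (a : F) v, M (a • v) = σ a • M v) (hB : ∀ u v, B (M u) (M v) = l * σ (B u v)) {p : ℕ}
    (hp : p = orderOf σ) (hp0 : 0 < p) (hMp : ∀ v, M^[p] v = v) (k : ℕ) (hk : k ≤ m) :
    ∃ e f : ℕ → Fin m ⊕ Fin m → F, Sys k e f ∧ (∀ i, M (e i) = e i) ∧ ∀ i, M (f i) = l • f i := by
  induction k with
  | zero =>
    refine ⟨fun _ => 0, fun _ => 0, ?_, fun _ => map_zero M, fun _ => by rw [map_zero, smul_zero]⟩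
    constructor <;> intros <;> simp_all
  | succ k ih =>
    obtain ⟨e, f, h, he, hf⟩ := ih (by omega)
    have hr := finrank_U h
    have hUM : ∀ u ∈ U e f, M u ∈ U e f := by
      intro u hu i
      have h1 := hB (e i) u
      have h2 := hB (f i) u
      rw [he, (hu i).1, map_zero, mul_zero] at h1
      rw [hf, (hu i).2, map_zero, mul_zero, sympForm_smul_left] at h2
      exact ⟨h1, (mul_eq_zero.1 h2).resolve_left hl⟩
    have hs := span_fixed hM hp hp0 hMp hUM
    obtain ⟨x, hx, hMx, hx0⟩ : ∃ x ∈ U e f, M x = x ∧ x ≠ 0 := by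
      by_contra hcon
      push Not at hcon
      have h1 : U e f = ⊥ := by
        rw [← hs, Submodule.span_eq_bot]
        rintro v ⟨hv, hv'⟩
        exact hcon v hv hv'
      rw [h1, finrank_bot] at hr
      omega
    obtain ⟨z, hz, hMz, hxz⟩ : ∃ z ∈ U e f, M z = z ∧ B x z ≠ 0 := by
      by_contra hcon
      push Not at hcon
      apply hx0
      apply nondeg_U h hx
      intro v hv
      rw [← hs] at hv
      induction hv using Submodule.span_induction with
      | mem v hv => exact hcon v hv.1 hv.2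
      | zero => exact sympForm_zero_right _
      | add a b _ _ ha hb => rw [sympForm_add_right, ha, hb, add_zero]
      | smul a b _ hb => rw [sympForm_smul_right, hb, mul_zero]
    set a := B x z with ha
    have hσa : l * σ a = a := by
      have := hB x z
      rw [hMx, hMz, ← ha] at this
      exact this.symm
    have hσa0 : σ a ≠ 0 := by simpa using hxz
    have h9 : σ a⁻¹ = l * a⁻¹ := by
      rw [map_inv₀]
      nth_rewrite 2 [← hσa]
      rw [mul_inv, mul_inv_cancel_left₀ hl]
    have hMz' : M (a⁻¹ • z) = l • a⁻¹ • z := by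
      rw [hM, h9, hMz, smul_smul]
    have hxy : B x (a⁻¹ • z) = 1 := by rw [sympForm_smul_right, ← ha, inv_mul_cancel₀ hxz]
    have hyU : a⁻¹ • z ∈ U e f := Submodule.smul_mem _ _ hz
    set y := a⁻¹ • z with hy
    have hx' := mem_U.1 hx
    have hy' := mem_U.1 hyU
    have u1 : ∀ i, i ≠ k → Function.update e k x i = e i := fun i hi => Function.update_of_ne hi _ _
    have u2 : ∀ i, i ≠ k → Function.update f k y i = f i := fun i hi => Function.update_of_ne hi _ _
    have u3 : Function.update e k x k = x := Function.update_self _ _ _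
    have u4 : Function.update f k y k = y := Function.update_self _ _ _
    refine ⟨Function.update e k x, Function.update f k y, ?_, ?_, ?_⟩
    · constructor
      · intro i j
        by_cases hi : i = k
        · subst hi
          by_cases hj : j = i
          · subst hj; rw [u3, sympForm_self]
          · rw [u3, u1 j hj]; exact Bswap (hx' j).1
        · by_cases hj : j = k
          · subst hj; rw [u3, u1 i hi]; exact (hx' i).1
          · rw [u1 i hi, u1 j hj]; exact h.ee i j
      · intro i j
        by_cases hi : i = k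
        · subst hi
          by_cases hj : j = i
          · subst hj; rw [u4, sympForm_self]
          · rw [u4, u2 j hj]; exact Bswap (hy' j).2
        · by_cases hj : j = k
          · subst hj; rw [u4, u2 i hi]; exact (hy' i).2
          · rw [u2 i hi, u2 j hj]; exact h.ff i j
      · intro i j hij
        by_cases hi : i = k
        · subst hi
          rw [u3, u2 j hij.symm]; exact Bswap (hx' j).2
        · by_cases hj : j = k
          · subst hj; rw [u4, u1 i hi]; exact (hy' i).1
          · rw [u1 i hi, u2 j hj]; exact h.ef i j hij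
      · intro i hi
        by_cases hik : i = k
        · subst hik; rw [u3, u4]; exact hxy
        · rw [u1 i hik, u2 i hik]; exact h.one i (by omega)
      · intro i hi
        rw [u1 i (by omega)]; exact h.ze i (by omega)
      · intro i hi
        rw [u2 i (by omega)]; exact h.zf i (by omega)
    · intro i
      by_cases hi : i = k
      · subst hi; rw [u3]; exact hMx
      · rw [u1 i hi]; exact he i
    · intro i
      by_cases hi : i = k
      · subst hi; rw [u4]; exact hMz'
      · rw [u2 i hi]; exact hf i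

/-! ### The theorem -/

theorem isSemi_pow {g : Equiv.Perm (Fin m ⊕ Fin m → F)} {φ : RingAut F} {l : F} (hl : l ≠ 0)
    (hg : IsSemi g φ l) (n : ℕ) : ∃ c : F, c ≠ 0 ∧ IsSemi (g ^ n) (φ ^ n : RingAut F) c := by
  induction n with
  | zero =>
    refine ⟨1, one_ne_zero, fun _ _ => rfl, fun _ _ => rfl, fun u v => ?_⟩
    rw [one_mul]
    rfl
  | succ n ih =>
    obtain ⟨c, hc, hn⟩ := ih
    refine ⟨c * (φ ^ n) l, mul_ne_zero hc ((map_ne_zero_iff (φ ^ n) (φ ^ n).injective).2 hl), ?_⟩
    have h1 := hn.mul hg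
    rw [pow_succ, pow_succ]
    exact h1

/-- **semilinear automorphisms of prime order: eight conjugates generate `Sp`** -/
theorem semilinear_eight [Finite F] (hm : 2 ≤ m) {g : semiSim m F} {φ : F ≃+* F} {l : F} (hl : l ≠ 0)
    (hg : IsSemi g.1 φ l) (hφ : φ ≠ RingEquiv.refl F) (hp : ∃ p : ℕ, p.Prime ∧ (Psi m F g) ^ p = 1) :
    Reach (conjHom m F g) 8 ⊤ := by
  obtain ⟨p, hp, hgp⟩ := hp
  let σ : RingAut F := φ
  have h1 : Psi m F (g ^ p) = 1 := by rw [map_pow, hgp]
  obtain ⟨a, ha⟩ := Cfsg.Agent.ClassicalGeometry.SympGamma.exists_scal_of_Psi_eq_one (by omega) (g ^ p) h1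
  have ha' : g.1 ^ p = Cfsg.Agent.ClassicalGeometry.SympGamma.scal m F a := ha
  obtain ⟨c, hc, hgn⟩ := isSemi_pow (φ := σ) hl hg p
  rw [ha'] at hgn
  have hσp : σ ^ p = 1 := by
    have h2 := Cfsg.Agent.ClassicalGeometry.SympGamma.IsSemi.unique (by omega) hgn
      (Cfsg.Agent.ClassicalGeometry.SympGamma.isSemi_scal a)
    exact h2.1
  have hord : orderOf σ = p := by
    rcases (Nat.dvd_prime hp).1 (orderOf_dvd_of_pow_eq_one hσp) with h1 | h1
    · exact absurd (orderOf_eq_one_iff.1 h1) hφ
    · exact h1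
  let M : V ≃+ V := { g.1 with map_add' := hg.1 }
  have hM : ∀ (a : F) v, M (a • v) = σ a • M v := hg.2.1
  have hMl : ∀ v, M^[orderOf σ] v = (a : F) • v := by
    intro v
    have h2 : ∀ (n : ℕ) v, M^[n] v = (g.1 ^ n) v := by
      intro n
      induction n with
      | zero => intro v; rfl
      | succ n ih =>
        intro v
        rw [Function.iterate_succ_apply, ih, pow_succ]
        rfl
    rw [hord, h2, ha']
    rfl
  obtain ⟨v₀, hv₀⟩ : ∃ v₀ : V, v₀ ≠ 0 := by
    refine ⟨Pi.single (Sum.inl ⟨0, by omega⟩) 1, ?_⟩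
    intro h0
    have := congrFun h0 (Sum.inl ⟨0, by omega⟩)
    rw [Pi.single_eq_same] at this
    exact one_ne_zero this
  obtain ⟨b, hb⟩ := exists_normalize hM a.ne_zero hMl hv₀
  let l' : F := (b : F) * b * l
  have hl' : l' ≠ 0 := mul_ne_zero (mul_ne_zero b.ne_zero b.ne_zero) hl
  have hM' : ∀ (a : F) v, sm b M (a • v) = σ a • sm b M v := by
    intro a v
    rw [sm_apply, sm_apply, hM, smul_comm]
  have hB' : ∀ u v, B (sm b M u) (sm b M v) = l' * σ (B u v) := by
    intro u v
    have h2 : B (M u) (M v) = l * σ (B u v) := hg.2.2 u v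
    rw [sm_apply, sm_apply, sympForm_smul_left, sympForm_smul_right, h2]
    change _ = (b : F) * b * l * _
    ring
  have hsemi : IsSemi (sm b M).toEquiv φ l' := ⟨fun u v => map_add (sm b M) u v, hM', hB'⟩
  let g' : semiSim m F := ⟨(sm b M).toEquiv, φ, l', hl', hsemi⟩
  have hconj : conjHom m F g' = conjHom m F g := by
    ext1 A
    apply ext_smul
    intro v
    obtain ⟨v, rfl⟩ := g'.1.surjective v
    rw [conjHom_smul]
    change (b : F) • g.1 (A • v) = conjHom m F g A • ((b : F) • g.1 v)
    rw [smul_smul', conjHom_smul]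
  obtain ⟨e, f, h, he, hf⟩ := exists_sys hl' hM' hB' rfl (by rw [hord]; exact hp.pos) hb m le_rfl
  have hspan : Submodule.span F (Set.range e) ⊔ Submodule.span F (Set.range f) = ⊤ := by
    rw [eq_top_iff]
    intro v _
    have hU := finrank_U h
    have h2 : Module.finrank F (U e f) = 0 := by omega
    have h3 : U e f = ⊥ := Submodule.finrank_eq_zero.1 h2
    have h4 := pr_mem h v
    rw [h3, Submodule.mem_bot] at h4
    unfold pr at h4
    rw [sub_eq_zero.1 h4]
    exact sum_mem' e f m v
  have h3 := reach_of_sys (g := g') hl' hsemi hφ h hm hspan he hf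
  rw [hconj] at h3
  exact h3.reach

/-- **semilinear automorphisms: eleven conjugates** -/
theorem semilinear [Finite F] (hm : 2 ≤ m) {g : semiSim m F} {φ : F ≃+* F} {l : F} (hl : l ≠ 0)
    (hg : IsSemi g.1 φ l) (hφ : φ ≠ RingEquiv.refl F) (hp : ∃ p : ℕ, p.Prime ∧ (Psi m F g) ^ p = 1) :
    Reach (conjHom m F g) 11 ⊤ :=
  (semilinear_eight hm hl hg hφ hp).mono (by norm_num) (by norm_num)

end Cfsg.Agent.H989.Gs.Sp
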